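import Cfsg.Agent.OrthTwoGen.Basic

/-!
Two elements generating the root group.
-/

set_option autoImplicit false
set_option maxHeartbeats 1000000

open QuadraticMap

namespace CfsgLib.OrthTwoGen

open CfsgLib.Forms

/-- hyperbolic pairs with a complement spanned by the two translates of one vector -/
structure Frame {F V : Type*} [Field F] [AddCommGroup V] [Module F V] (Q : QuadraticForm F V)
    (k : ℕ) where
  e : Fin (k + 3) → V
  f : Fin (k + 3) → V
  z : V
  u0 : V
  qe : ∀ i, Q (e i) = 0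
  qf : ∀ i, Q (f i) = 0
  pef : ∀ i, polar Q (e i) (f i) = 1
  pee : ∀ i j, i ≠ j → polar Q (e i) (e j) = 0
  pff : ∀ i j, i ≠ j → polar Q (f i) (f j) = 0
  pef' : ∀ i j, i ≠ j → polar Q (e i) (f j) = 0
  z_e : ∀ i, polar Q z (e i) = 0
  z_f : ∀ i, polar Q z (f i) = 0
  hz : Q z ≠ 0
  u_e : ∀ i, polar Q u0 (e i) = 0
  u_f : ∀ i, polar Q u0 (f i) = 0
  span : ∀ u, (∀ i, polar Q u (e i) = 0) → (∀ i, polar Q u (f i) = 0) →
    ∃ a b : F, u = a • u0 + b • (u0 - ((Q z)⁻¹ * polar Q u0 z) • z)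
  pair : ∃ u u' : V, (∀ i, polar Q u (e i) = 0) ∧ (∀ i, polar Q u (f i) = 0) ∧
    (∀ i, polar Q u' (e i) = 0) ∧ (∀ i, polar Q u' (f i) = 0) ∧ polar Q u u' ≠ 0

variable {F V : Type*} [Field F] [AddCommGroup V] [Module F V] {Q : QuadraticForm F V} {k : ℕ}

namespace Frame

variable (D : Frame Q k)

/-- the vectors orthogonal to every pair -/
def InU (u : V) : Prop := ∀ i, polar Q u (D.e i) = 0 ∧ polar Q u (D.f i) = 0

theorem u0_inU : D.InU D.u0 := fun i => ⟨D.u_e i, D.u_f i⟩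

theorem inU_smul {u : V} (h : D.InU u) (c : F) : D.InU (c • u) := fun i =>
  ⟨by rw [polar_smul_left, (h i).1, smul_zero], by rw [polar_smul_left, (h i).2, smul_zero]⟩

theorem inU_add {u u' : V} (h : D.InU u) (h' : D.InU u') : D.InU (u + u') := fun i =>
  ⟨by rw [polar_add_left, (h i).1, (h' i).1, add_zero],
    by rw [polar_add_left, (h i).2, (h' i).2, add_zero]⟩

/-- the reflection on the complement -/
def R (u : V) : V := u - ((Q D.z)⁻¹ * polar Q u D.z) • D.z

theorem R_inU {u : V} (h : D.InU u) : D.InU (D.R u) := fun i =>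
  ⟨by rw [R, polar_sub_left, polar_smul_left, (h i).1, D.z_e i]; simp,
    by rw [R, polar_sub_left, polar_smul_left, (h i).2, D.z_f i]; simp⟩

theorem R_smul (c : F) (u : V) : D.R (c • u) = c • D.R u := by
  rw [R, R, polar_smul_left, smul_eq_mul]; module

theorem R_add (u u' : V) : D.R (u + u') = D.R u + D.R u' := by
  rw [R, R, R, polar_add_left]; module

theorem R_R (u : V) : D.R (D.R u) = u := by
  have := D.hz
  simp only [R, polar_sub_left, polar_smul_left, polar_self, smul_eq_mul, nsmul_eq_mul, Nat.cast_ofNat]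
  match_scalars <;> (field_simp; try ring)

theorem two (i j : Fin (k + 3)) (h : i ≠ j) : TwoPairs Q (D.e i) (D.f i) (D.e j) (D.f j) :=
  ⟨D.qe i, D.qf i, D.qe j, D.qf j, D.pef i, D.pef j, D.pee i j h, D.pef' i j h,
    by rw [polar_comm]; exact D.pef' j i h.symm, D.pff i j h⟩

theorem n_fix {i j : Fin (k + 3)} (h : i ≠ j) (t : F) {v : V}
    (h1 : polar Q v (D.e i) = 0) (h2 : polar Q v (D.f i) = 0) (h3 : polar Q v (D.e j) = 0)
    (h4 : polar Q v (D.f j) = 0) : nEl Q (D.e i) (D.f i) (D.e j) (D.f j) t v = v :=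
  (D.two i j h).n_fix t h1 h2 h3 h4

theorem fe_zero {i j : Fin (k + 3)} (h : i ≠ j) : polar Q (D.f i) (D.e j) = 0 := by
  rw [polar_comm]; exact D.pef' j i h.symm

theorem n_fix_e {i j l : Fin (k + 3)} (h : i ≠ j) (h1 : l ≠ i) (h2 : l ≠ j) (t : F) :
    nEl Q (D.e i) (D.f i) (D.e j) (D.f j) t (D.e l) = D.e l :=
  D.n_fix h t (D.pee l i h1) (D.pef' l i h1) (D.pee l j h2) (D.pef' l j h2)

theorem n_fix_f {i j l : Fin (k + 3)} (h : i ≠ j) (h1 : l ≠ i) (h2 : l ≠ j) (t : F) :
    nEl Q (D.e i) (D.f i) (D.e j) (D.f j) t (D.f l) = D.f l :=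
  D.n_fix h t (D.fe_zero h1) (D.pff l i h1) (D.fe_zero h2) (D.pff l j h2)

/-- the successive shifts -/
noncomputable def shift : ℕ → (V ≃ₗ[F] V)
  | 0 => 1
  | j + 1 =>
    if h : j + 1 < k + 3 then
      shift j * nEl Q (D.e ⟨j, by omega⟩) (D.f ⟨j, by omega⟩) (D.e ⟨j + 1, h⟩) (D.f ⟨j + 1, h⟩) (-1)
    else shift j

theorem shift_mem_isom : ∀ j, D.shift j ∈ isom Q
  | 0 => one_mem _
  | j + 1 => by
    rw [shift]; split
    · exact mul_mem (shift_mem_isom j) (nEl_mem_isom _ _ _ _ _)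
    · exact shift_mem_isom j

theorem shift_spec : ∀ j (hj : j < k + 3),
    (∀ i (hi : i < j), D.shift j (D.e ⟨i, by omega⟩) = D.e ⟨i + 1, by omega⟩ ∧
      D.shift j (D.f ⟨i, by omega⟩) = D.f ⟨i + 1, by omega⟩) ∧
    (∃ c : F, c ≠ 0 ∧ D.shift j (D.e ⟨j, hj⟩) = c • D.e 0 ∧ D.shift j (D.f ⟨j, hj⟩) = c • D.f 0) ∧
    (∀ i (hi : i < k + 3), j < i → D.shift j (D.e ⟨i, hi⟩) = D.e ⟨i, hi⟩ ∧
      D.shift j (D.f ⟨i, hi⟩) = D.f ⟨i, hi⟩) ∧
    (∀ u, D.InU u → D.shift j u = u) := by
  intro j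
  induction j with
  | zero =>
    intro hj
    exact ⟨fun i hi => absurd hi (by omega), ⟨1, one_ne_zero, (one_smul F _).symm, (one_smul F _).symm⟩,
      fun i hi _ => ⟨rfl, rfl⟩, fun u _ => rfl⟩
  | succ j ih =>
    intro hj
    obtain ⟨h1, ⟨c, hc, hce, hcf⟩, h3, h4⟩ := ih (by omega)
    have hne : (⟨j, by omega⟩ : Fin (k + 3)) ≠ ⟨j + 1, hj⟩ := by simp
    have hT := D.two _ _ hne
    have hm : (-1 : F) ≠ 0 := by simp
    refine ⟨fun i hi => ?_, ⟨-c, neg_ne_zero.mpr hc, ?_, ?_⟩, fun i hi hlt => ?_, fun u hu => ?_⟩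
    · simp only [shift, dif_pos hj, LinearEquiv.mul_apply]
      rcases Nat.lt_or_ge i j with h | h
      · rw [D.n_fix_e hne (by simp; omega) (by simp; omega),
          D.n_fix_f hne (by simp; omega) (by simp; omega)]
        exact h1 i h
      · obtain rfl : i = j := by omega
        rw [hT.n_e hm, hT.n_f hm, neg_inv, neg_neg, inv_one, one_smul, one_smul]
        exact h3 _ hj (by omega)
    · simp only [shift, dif_pos hj, LinearEquiv.mul_apply]
      rw [hT.n_e' hm, map_smul, hce, smul_smul, neg_one_mul]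
    · simp only [shift, dif_pos hj, LinearEquiv.mul_apply]
      rw [hT.n_f' hm, map_smul, hcf, smul_smul, inv_neg, inv_one, neg_one_mul]
    · simp only [shift, dif_pos hj, LinearEquiv.mul_apply]
      rw [D.n_fix_e hne (by simp; omega) (by simp; omega),
        D.n_fix_f hne (by simp; omega) (by simp; omega)]
      exact h3 i hi (by omega)
    · simp only [shift, dif_pos hj, LinearEquiv.mul_apply]
      rw [D.n_fix hne _ (hu _).1 (hu _).2 (hu _).1 (hu _).2]
      exact h4 u hu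

/-- the Coxeter-type element -/
noncomputable def W : V ≃ₗ[F] V :=
  D.shift (k + 2) * nzEl Q (D.e ⟨k + 2, by omega⟩) (D.f ⟨k + 2, by omega⟩) D.z

theorem W_mem_isom : D.W ∈ isom Q :=
  mul_mem (D.shift_mem_isom _) (mul_mem (mul_mem (sg_mem_isom _ _) (sg_mem_isom _ _)) (sg_mem_isom _ _))

theorem nz_fix {i : ℕ} (hi : i < k + 2) {v : V}
    (hv : v = D.e ⟨i, by omega⟩ ∨ v = D.f ⟨i, by omega⟩) :
    nzEl Q (D.e ⟨k + 2, by omega⟩) (D.f ⟨k + 2, by omega⟩) D.z v = v := by
  have hne : (⟨i, by omega⟩ : Fin (k + 3)) ≠ ⟨k + 2, by omega⟩ := by simp; omega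
  have h3 : polar Q v D.z = 0 := by
    rcases hv with rfl | rfl <;> rw [polar_comm]
    · exact D.z_e _
    · exact D.z_f _
  rw [nz_perp (D.qe _) (D.qf _) (D.pef _) (D.z_e _) (D.z_f _) D.hz ?_ ?_, h3]
  · simp
  · rcases hv with rfl | rfl
    · exact D.pee _ _ hne
    · exact D.fe_zero hne
  · rcases hv with rfl | rfl
    · exact D.pef' _ _ hne
    · exact D.pff _ _ hne

theorem W_step {i : ℕ} (hi : i < k + 2) :
    D.W (D.e ⟨i, by omega⟩) = D.e ⟨i + 1, by omega⟩ ∧
      D.W (D.f ⟨i, by omega⟩) = D.f ⟨i + 1, by omega⟩ := by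
  simp only [W, LinearEquiv.mul_apply, D.nz_fix hi (Or.inl rfl), D.nz_fix hi (Or.inr rfl)]
  exact (D.shift_spec (k + 2) (by omega)).1 i hi

theorem W_last : ∃ c : F, c ≠ 0 ∧ D.W (D.e ⟨k + 2, by omega⟩) = c • D.f 0 := by
  obtain ⟨-, ⟨c, hc, -, hcf⟩, -, -⟩ := D.shift_spec (k + 2) (by omega)
  refine ⟨-(Q D.z)⁻¹ * c, mul_ne_zero (neg_ne_zero.mpr (inv_ne_zero D.hz)) hc, ?_⟩
  rw [W, LinearEquiv.mul_apply, nz_e (D.qe _) (D.qf _) (D.pef _) (D.z_e _) (D.z_f _) D.hz,
    map_smul, hcf, smul_smul]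

theorem W_U {u : V} (hu : D.InU u) : D.W u = D.R u := by
  rw [W, LinearEquiv.mul_apply,
    nz_perp (D.qe _) (D.qf _) (D.pef _) (D.z_e _) (D.z_f _) D.hz (hu _).1 (hu _).2]
  exact (D.shift_spec (k + 2) (by omega)).2.2.2 _ (D.R_inU hu)

theorem ne01 : (0 : Fin (k + 3)) ≠ 1 := by intro h; have := congrArg Fin.val h; simp at this

theorem t01 : TwoPairs Q (D.e 0) (D.f 0) (D.e 1) (D.f 1) := D.two 0 1 ne01

/-- the element mixing the first two pairs -/
noncomputable def G (s : F) : V ≃ₗ[F] V :=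
  nEl Q (D.e 0) (D.f 0) (D.e 1) (D.f 1) (-1) * sigma Q (D.e 0) (D.f 1) s

/-- the mixing element followed by a torus element -/
noncomputable def A (s a : F) : V ≃ₗ[F] V :=
  D.G s * tEl Q (D.e 0) (D.f 0) (D.f 1) (D.e 1) a

theorem A_mem_isom (s a : F) : D.A s a ∈ isom Q :=
  mul_mem (mul_mem (nEl_mem_isom _ _ _ _ _) (sg_mem_isom _ _))
    (mul_mem (nEl_mem_isom _ _ _ _ _) (nEl_mem_isom _ _ _ _ _))

theorem A_vals (s : F) {a : F} (ha : a ≠ 0) :
    D.A s a (D.e 0) = a • D.e 1 ∧ D.A s a (D.e 1) = (a * s) • D.e 1 - a • D.e 0 ∧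
      D.A s a (D.f 0) = a⁻¹ • (D.f 1 + s • D.f 0) ∧ D.A s a (D.f 1) = -a⁻¹ • D.f 0 := by
  have h := D.t01
  have h' := h.relabel
  have hm : (-1 : F) ≠ 0 := by simp
  simp only [A, G, LinearEquiv.mul_apply, h'.t_e ha, h'.t_f' ha, h'.t_f ha, h'.t_e' ha, map_smul,
    map_add, map_sub, h.sigma_e, h.sigma_e', h.sigma_f, h.sigma_f', h.n_e hm, h.n_e' hm, h.n_f hm,
    h.n_f' hm, inv_neg, inv_one, neg_neg, one_smul]
  refine ⟨trivial, ?_, ?_, ?_⟩ <;> module

theorem A_fix (s a : F) {v : V} (h1 : polar Q v (D.e 0) = 0) (h2 : polar Q v (D.f 0) = 0)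
    (h3 : polar Q v (D.e 1) = 0) (h4 : polar Q v (D.f 1) = 0) : D.A s a v = v := by
  simp only [A, G, LinearEquiv.mul_apply, D.t01.relabel.t_fix a h1 h2 h4 h3,
    D.t01.sigma_fix s h1 h4, D.t01.n_fix (-1) h1 h2 h3 h4]

variable {H : Subgroup (V ≃ₗ[F] V)}

/-- the Siegel maps at `d` with these complement vectors lie in `H` -/
def Has (H : Subgroup (V ≃ₗ[F] V)) (d u : V) : Prop := D.InU u ∧ sg Q d u ∈ H

theorem dom_e {u : V} (hu : D.InU u) (i : Fin (k + 3)) : polar Q u (D.e i) = 0 := (hu i).1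

theorem has_conj {B : V ≃ₗ[F] V} (hB : B ∈ H) (hBi : B ∈ isom Q) {d u d' u' : V} (hd : Q d = 0)
    (hud : polar Q u d = 0) (h : sg Q d u ∈ H) (e1 : B d = d') (e2 : B u = u') : sg Q d' u' ∈ H := by
  rw [← e1, ← e2, ← sg_conj hBi hd hud]
  exact mul_mem (mul_mem hB h) (inv_mem hB)

theorem has_conj' {B : V ≃ₗ[F] V} (hB : B ∈ H) (hBi : B ∈ isom Q) {d u d' u' : V} (hd : Q d' = 0)
    (hud : polar Q u' d' = 0) (h : sg Q d u ∈ H) (e1 : B d' = d) (e2 : B u' = u) : sg Q d' u' ∈ H := by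
  rw [← e1, ← e2, ← sg_conj hBi hd hud] at h
  have := mul_mem (mul_mem (inv_mem hB) h) hB
  simpa [mul_assoc] using this

variable [FiniteDimensional F V] [Finite F]

/-- the main statement -/
theorem root_le (hQ : (polarBilin Q).Nondegenerate) {s a lam : F} (ha : a ≠ 0) (r : ℕ)
    (hr : (D.A s a ^ r) (D.e 0) = lam • D.e 0)
    (hgenF : ∀ S : Subring F, lam ∈ S → S = ⊤)
    (hy : sg Q (D.e ⟨2, by omega⟩) D.u0 ∈ H) (hW : D.W ∈ H) (hA : D.A s a ∈ H) :
    rootGroup Q ≤ H := by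
  have hu0 := D.u0_inU
  have hWi := D.W_mem_isom
  have hAi := D.A_mem_isom s a
  have hAU : ∀ u, D.InU u → D.A s a u = u := fun u hu =>
    D.A_fix s a (hu 0).1 (hu 0).2 (hu 1).1 (hu 1).2
  -- down to index zero
  have hR1 : sg Q (D.e ⟨1, by omega⟩) (D.R D.u0) ∈ H :=
    has_conj' hW hWi (D.qe _) ((D.R_inU hu0 _).1) hy (D.W_step (i := 1) (by omega)).1
      (by rw [D.W_U (D.R_inU hu0), D.R_R])
  have hu00 : sg Q (D.e 0) D.u0 ∈ H :=
    has_conj' hW hWi (D.qe _) ((hu0 _).1) hR1 (D.W_step (i := 0) (by omega)).1 (D.W_U hu0)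
  have hRa : sg Q (D.e 0) (a⁻¹ • D.R D.u0) ∈ H := by
    have h1 : sg Q (a • D.e 1) (a⁻¹ • D.R D.u0) ∈ H := by
      rw [sg_smul (D.qe _) ((D.inU_smul (D.R_inU hu0) _ _).1), smul_smul, mul_inv_cancel₀ ha,
        one_smul]
      exact hR1
    refine has_conj' hA hAi (D.qe _) ((D.inU_smul (D.R_inU hu0) _ _).1) h1 (D.A_vals s ha).1 ?_
    rw [map_smul, hAU _ (D.R_inU hu0)]
  -- scalars
  have hB : D.A s a ^ r ∈ H := pow_mem hA r
  have hBi : D.A s a ^ r ∈ isom Q := pow_mem hAi r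
  have hBU : ∀ u, D.InU u → (D.A s a ^ r) u = u := by
    intro u hu
    have key : ∀ j : ℕ, (D.A s a ^ j) u = u := fun j => by
      induction j with
      | zero => simp
      | succ j ih => rw [pow_succ, LinearEquiv.mul_apply, hAU u hu, ih]
    exact key r
  have hBe : (D.A s a ^ r) (D.e 0) = lam • D.e 0 := hr
  have hscal : ∀ u, D.InU u → sg Q (D.e 0) u ∈ H → ∀ c : F, sg Q (D.e 0) (c • u) ∈ H := by
    intro u hu h c
    have hd : ∀ c : F, polar Q (c • u) (D.e 0) = 0 := fun c => (D.inU_smul hu c 0).1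
    have hlam : ∀ c : F, sg Q (D.e 0) (c • u) ∈ H → sg Q (D.e 0) ((lam * c) • u) ∈ H := by
      intro c hc
      have h1 := has_conj hB hBi (D.qe _) (hd c) hc hBe (hBU _ (D.inU_smul hu c))
      rwa [sg_smul (D.qe _) (hd c), smul_smul] at h1
    let S : Subring F :=
      { carrier := {x | ∀ c : F, sg Q (D.e 0) (c • u) ∈ H → sg Q (D.e 0) ((x * c) • u) ∈ H}
        one_mem' := fun c hc => by rwa [one_mul]
        mul_mem' := fun {x y} hx hy c hc => by rw [mul_assoc]; exact hx _ (hy c hc)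
        zero_mem' := fun c _ => by rw [zero_mul, zero_smul, sg_zero (D.qe _)]; exact one_mem H
        add_mem' := fun {x y} hx hy c hc => by
          rw [add_mul, add_smul, ← sg_mul (D.qe _) (hd _) (hd _)]
          exact mul_mem (hx c hc) (hy c hc)
        neg_mem' := fun {x} hx c hc => by
          rw [neg_mul, neg_smul, ← sg_inv (D.qe _) (hd _)]
          exact inv_mem (hx c hc) }
    have := hgenF S (fun c hc => hlam c hc)
    have hc : c ∈ S := this ▸ Subring.mem_top c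
    have := hc 1 (by rwa [one_smul])
    rwa [mul_one] at this
  have hU0 : ∀ u, D.InU u → sg Q (D.e 0) u ∈ H := by
    intro u hu
    obtain ⟨x, y, rfl⟩ := D.span u (fun i => (hu i).1) (fun i => (hu i).2)
    show sg Q (D.e 0) (x • D.u0 + y • D.R D.u0) ∈ H
    rw [← sg_mul (D.qe _) ((D.inU_smul hu0 x 0).1) ((D.inU_smul (D.R_inU hu0) y 0).1)]
    refine mul_mem (hscal _ hu0 hu00 x) ?_
    have := hscal _ (D.inU_smul (D.R_inU hu0) _) hRa (y * a)
    rwa [smul_smul, mul_assoc, mul_inv_cancel₀ ha, mul_one] at this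
  -- all indices
  have hUe : ∀ i (hi : i < k + 3), ∀ u, D.InU u → sg Q (D.e ⟨i, hi⟩) u ∈ H := by
    intro i
    induction i with
    | zero => intro hi; exact hU0
    | succ i ih =>
      intro hi u hu
      exact has_conj hW hWi (D.qe _) ((D.R_inU hu _).1) (ih (by omega) _ (D.R_inU hu))
        (D.W_step (by omega)).1 (by rw [D.W_U (D.R_inU hu), D.R_R])
  have hUf : ∀ i (hi : i < k + 3), ∀ u, D.InU u → sg Q (D.f ⟨i, hi⟩) u ∈ H := by
    intro i
    induction i with
    | zero =>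
      intro hi u hu
      obtain ⟨c, hc, hWl⟩ := D.W_last
      have h1 := has_conj hW hWi (D.qe _) ((D.R_inU (D.inU_smul hu c⁻¹) _).1)
        (hUe (k + 2) (by omega) _ (D.R_inU (D.inU_smul hu c⁻¹))) hWl
        (by rw [D.W_U (D.R_inU (D.inU_smul hu c⁻¹)), D.R_R])
      rwa [sg_smul (D.qf _) ((D.inU_smul hu _ _).2), smul_smul, mul_inv_cancel₀ hc, one_smul] at h1
    | succ i ih =>
      intro hi u hu
      exact has_conj hW hWi (D.qf _) ((D.R_inU hu _).2) (ih (by omega) _ (D.R_inU hu))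
        (D.W_step (by omega)).2 (by rw [D.W_U (D.R_inU hu), D.R_R])
  -- long roots by commutators
  have hlong : ∀ d d' : V, Q d = 0 → Q d' = 0 → polar Q d d' = 0 →
      (∀ u, D.InU u → polar Q u d = 0 ∧ polar Q u d' = 0) →
      (∀ u, D.InU u → sg Q d u ∈ H) → (∀ u, D.InU u → sg Q d' u ∈ H) →
      ∀ c : F, sg Q d (c • d') ∈ H := by
    intro d d' hd hd' hdd hperp h h' c
    obtain ⟨u, u', hue, huf, hue', huf', huu⟩ := D.pair
    have hu : D.InU ((c / polar Q u u') • u) := D.inU_smul (fun i => ⟨hue i, huf i⟩) _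
    have hu' : D.InU u' := fun i => ⟨hue' i, huf' i⟩
    have e1 : sg Q d' u' d = d :=
      sg_fix hd' (hperp u' hu').2 hdd (by rw [polar_comm]; exact (hperp u' hu').1)
    have e2 : sg Q d' u' ((c / polar Q u u') • u) = (c / polar Q u u') • u + c • d' := by
      rw [sg_apply hd' (hperp u' hu').2, (hperp _ hu).2, polar_smul_left, smul_eq_mul,
        div_mul_cancel₀ c huu]
      simp
    have h1 := has_conj (h' u' hu') (sg_mem_isom _ _) hd (hperp _ hu).1 (h _ hu) e1 e2
    have hcd : polar Q (c • d') d = 0 := by rw [polar_smul_left, polar_comm, hdd, smul_zero]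
    rw [← sg_mul hd (hperp _ hu).1 hcd] at h1
    exact (Subgroup.mul_mem_cancel_left H (h _ hu)).mp h1
  -- everything perpendicular to a basic vector of the first pair
  have hfull : ∀ d d₀ : V, (d = D.e 0 ∧ d₀ = D.f 0 ∨ d = D.f 0 ∧ d₀ = D.e 0) →
      ∀ x : V, polar Q x d = 0 → sg Q d x ∈ H := by
    intro d d₀ hd x hx
    have hq : Q d = 0 := by rcases hd with ⟨rfl, -⟩ | ⟨rfl, -⟩ <;> [exact D.qe 0; exact D.qf 0]
    have hq0 : polar Q d d₀ = 1 := by
      rcases hd with ⟨rfl, rfl⟩ | ⟨rfl, rfl⟩ <;> [exact D.pef 0; (rw [polar_comm]; exact D.pef 0)]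
    have hde : ∀ i : Fin (k + 3), i ≠ 0 → polar Q d (D.e i) = 0 ∧ polar Q d (D.f i) = 0 := by
      intro i hi
      rcases hd with ⟨rfl, -⟩ | ⟨rfl, -⟩
      · exact ⟨D.pee _ _ hi.symm, D.pef' _ _ hi.symm⟩
      · exact ⟨D.fe_zero hi.symm, D.pff _ _ hi.symm⟩
    have hperpU : ∀ u, D.InU u → polar Q u d = 0 := fun u hu => by
      rcases hd with ⟨rfl, -⟩ | ⟨rfl, -⟩ <;> [exact (hu 0).1; exact (hu 0).2]
    have hbase : ∀ u, D.InU u → sg Q d u ∈ H := fun u hu => by
      rcases hd with ⟨rfl, -⟩ | ⟨rfl, -⟩ <;> [exact hU0 u hu; exact hUf 0 (by omega) u hu]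
    -- peel off the coordinates
    have peel : ∀ S : Finset (Fin (k + 3)), ∀ v : V, polar Q v d = 0 → polar Q v d₀ = 0 →
        (∀ i, i ∉ S → i ≠ 0 → polar Q v (D.e i) = 0 ∧ polar Q v (D.f i) = 0) →
        sg Q d v ∈ H := by
      intro S
      induction S using Finset.induction with
      | empty =>
        intro v hv hv0 h
        refine hbase v fun i => ?_
        by_cases hi : i = 0
        · subst hi
          rcases hd with ⟨rfl, rfl⟩ | ⟨rfl, rfl⟩ <;> [exact ⟨hv, hv0⟩; exact ⟨hv0, hv⟩]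
        · exact h i (Finset.notMem_empty i) hi
      | @insert j S hj ih =>
        intro v hv hv0 h
        by_cases hj0 : j = 0
        · subst hj0
          exact ih v hv hv0 fun i hi hi0 => h i (by simp [hi, hi0]) hi0
        set c1 := polar Q v (D.f j) with hc1
        set c2 := polar Q v (D.e j) with hc2
        set v' := v - c1 • D.e j - c2 • D.f j with hv'
        have pd : ∀ c : F, polar Q (c • D.e j) d = 0 ∧ polar Q (c • D.f j) d = 0 := fun c =>
          ⟨by rw [polar_smul_left, polar_comm, (hde j hj0).1, smul_zero],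
            by rw [polar_smul_left, polar_comm, (hde j hj0).2, smul_zero]⟩
        have hd0e : polar Q (D.e j) d₀ = 0 ∧ polar Q (D.f j) d₀ = 0 := by
          rcases hd with ⟨-, rfl⟩ | ⟨-, rfl⟩
          · exact ⟨D.pef' _ _ hj0, D.pff _ _ hj0⟩
          · exact ⟨D.pee _ _ hj0, D.fe_zero hj0⟩
        have hv'd : polar Q v' d = 0 := by
          rw [hv', polar_sub_left, polar_sub_left, hv, (pd c1).1, (pd c2).2]; simp
        have hsum : v = c1 • D.e j + (c2 • D.f j + v') := by rw [hv']; abel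
        rw [hsum, ← sg_mul hq (pd c1).1 (by rw [polar_add_left, (pd c2).2, hv'd, add_zero]),
          ← sg_mul hq (pd c2).2 hv'd]
        refine mul_mem ?_ (mul_mem ?_ (ih v' hv'd ?_ ?_))
        · exact hlong d _ hq (D.qe j) (hde j hj0).1 (fun u hu => ⟨hperpU u hu, (hu j).1⟩) hbase
            (fun u hu => hUe j.1 j.2 u hu) c1
        · exact hlong d _ hq (D.qf j) (hde j hj0).2 (fun u hu => ⟨hperpU u hu, (hu j).2⟩) hbase
            (fun u hu => hUf j.1 j.2 u hu) c2
        · rw [hv', polar_sub_left, polar_sub_left, hv0, polar_smul_left, polar_smul_left, hd0e.1,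
            hd0e.2]; simp
        · intro i hi hi0
          by_cases hij : i = j
          · subst hij
            rw [hv']
            simp only [polar_sub_left, polar_smul_left, polar_self, D.qe, D.qf, D.pef,
              polar_comm Q (D.f i) (D.e i), ← hc1, ← hc2, smul_zero, smul_eq_mul, mul_one, mul_zero,
              sub_zero, sub_self, and_self]
          · obtain ⟨g1, g2⟩ := h i (by simp [hi, hij]) hi0
            rw [hv']
            simp only [polar_sub_left, polar_smul_left, g1, g2, D.pee j i (Ne.symm hij),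
              D.pef' j i (Ne.symm hij), D.fe_zero (Ne.symm hij), D.pff j i (Ne.symm hij),
              smul_zero, sub_zero, and_self]
    set t := polar Q x d₀
    have hself : polar Q (t • d) d = 0 := by rw [polar_smul_left, polar_self, hq]; simp
    have hxd : polar Q (x - t • d) d = 0 := by rw [polar_sub_left, hx, hself, sub_zero]
    rw [show x = t • d + (x - t • d) by abel, ← sg_mul hq hself hxd, sg_self hq, one_mul]
    exact peel Finset.univ _ hxd
      (by rw [polar_sub_left, polar_smul_left, hq0, smul_eq_mul, mul_one, sub_self])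
      (fun i hi => absurd (Finset.mem_univ i) hi)
  have hE : ∀ x, polar Q x (D.e 0) = 0 → sg Q (D.e 0) x ∈ H :=
    hfull _ _ (Or.inl ⟨rfl, rfl⟩)
  have hF : ∀ x, polar Q x (D.f 0) = 0 → sg Q (D.f 0) x ∈ H :=
    hfull _ _ (Or.inr ⟨rfl, rfl⟩)
  -- transitivity
  let T : V → Prop := fun v => ∀ x, polar Q x v = 0 → sg Q v x ∈ H
  have hback : ∀ (B : V ≃ₗ[F] V) (v : V), B ∈ H → B ∈ isom Q → Q v = 0 → T (B v) → T v := by
    intro B v hB hBi hv hT x hx
    exact has_conj' hB hBi hv hx (hT (B x) (by rw [isom_polar hBi, hx])) rfl rfl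
  have hee : polar Q (D.e 0) (D.e 0) = 0 := by rw [polar_self, D.qe]; simp
  have hff : polar Q (D.f 0) (D.f 0) = 0 := by rw [polar_self, D.qf]; simp
  have hfe : polar Q (D.f 0) (D.e 0) = 1 := by rw [polar_comm, D.pef]
  have step1 : ∀ v, Q v = 0 → polar Q v (D.e 0) ≠ 0 → T v := by
    intro v hv hb
    set b := polar Q v (D.e 0) with hbdef
    set g := polar Q v (D.f 0) with hgdef
    set x := b⁻¹ • (v - g • D.e 0 - b • D.f 0) with hx
    have hxd : polar Q x (D.e 0) = 0 := by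
      rw [hx, polar_smul_left, polar_sub_left, polar_sub_left, polar_smul_left, polar_smul_left,
        hee, hfe, ← hbdef]; simp
    have hxf : polar Q x (D.f 0) = 0 := by
      rw [hx, polar_smul_left, polar_sub_left, polar_sub_left, polar_smul_left, polar_smul_left,
        hff, D.pef, ← hgdef]; simp
    obtain ⟨γ, hγ⟩ : ∃ γ : F, sg Q (D.e 0) x v = γ • D.e 0 + b • D.f 0 := by
      refine ⟨g + (polar Q v x - Q x * b), ?_⟩
      rw [sg_apply (D.qe 0) hxd, hx, smul_smul, mul_inv_cancel₀ hb, one_smul]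
      module
    refine hback _ v (hE x hxd) (sg_mem_isom _ _) hv ?_
    have hq := (sg_mem_isom (Q := Q) (D.e 0) x) v
    rw [hγ, QuadraticMap.map_add (⇑Q), QuadraticMap.map_smul, QuadraticMap.map_smul, D.qe, D.qf,
      polar_smul_left, polar_smul_right, D.pef, hv] at hq
    simp [hb] at hq
    rw [hγ, hq, zero_smul, zero_add]
    intro y hy
    have hy' : polar Q y (D.f 0) = 0 := by
      rw [polar_smul_right, smul_eq_mul] at hy
      exact (mul_eq_zero.mp hy).resolve_left hb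
    rw [sg_smul (D.qf 0) hy']
    exact hF _ (by rw [polar_smul_left, hy', smul_zero])
  have step2 : ∀ v, Q v = 0 → v ≠ polar Q v (D.f 0) • D.e 0 → T v := by
    intro v hv hne
    by_cases hb : polar Q v (D.e 0) ≠ 0
    · exact step1 v hv hb
    push_neg at hb
    set g := polar Q v (D.f 0) with hgdef
    set v' := v - g • D.e 0 with hv'
    have hv'0 : v' ≠ 0 := sub_ne_zero.mpr hne
    obtain ⟨w, hw⟩ : ∃ w, polar Q v' w ≠ 0 := by
      by_contra hcon
      push_neg at hcon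
      exact hv'0 (hQ.1 v' fun w => by rw [polarBilin_apply_apply]; exact hcon w)
    set x0 := w - polar Q w (D.f 0) • D.e 0 - polar Q w (D.e 0) • D.f 0 with hx0
    have hv'e : polar Q v' (D.e 0) = 0 := by
      rw [hv', polar_sub_left, hb, polar_smul_left, hee]; simp
    have hv'f : polar Q v' (D.f 0) = 0 := by
      rw [hv', polar_sub_left, ← hgdef, polar_smul_left, D.pef]; simp
    have hx0e : polar Q x0 (D.e 0) = 0 := by
      rw [hx0, polar_sub_left, polar_sub_left, polar_smul_left, polar_smul_left, hee, hfe]; simp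
    have hx0f : polar Q x0 (D.f 0) = 0 := by
      rw [hx0, polar_sub_left, polar_sub_left, polar_smul_left, polar_smul_left, hff, D.pef]; simp
    have hp : polar Q v' x0 ≠ 0 := by
      rw [hx0, polar_sub_right, polar_sub_right, polar_smul_right, polar_smul_right, hv'e, hv'f]
      simpa using hw
    have hvx : polar Q v x0 = polar Q v' x0 := by
      rw [hv', polar_sub_left, polar_smul_left, polar_comm Q (D.e 0) x0, hx0e]; simp
    -- first clear the `e` coordinate
    set c := -(g / polar Q v' x0) with hc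
    set x := c • x0 with hx
    have hxe : polar Q x (D.e 0) = 0 := by rw [hx, polar_smul_left, hx0e, smul_zero]
    refine hback _ v (hE x hxe) (sg_mem_isom _ _) hv ?_
    have hv1 : sg Q (D.e 0) x v = v' := by
      rw [sg_apply (D.qe 0) hxe, hb, hx, polar_smul_right, hvx, smul_eq_mul, hc]
      rw [neg_mul, div_mul_cancel₀ g hp, hv']; module
    rw [hv1]
    have hq' : Q v' = 0 := by rw [← hv1, sg_mem_isom (Q := Q) (D.e 0) x v, hv]
    refine hback _ v' (hF x0 hx0f) (sg_mem_isom _ _) hq' (step1 _ ?_ ?_)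
    · rw [sg_mem_isom (Q := Q) (D.f 0) x0 v', hq']
    · rw [sg_apply (D.qf 0) hx0f, hv'f]
      simp only [mul_zero, sub_zero, zero_smul, polar_add_left, polar_smul_left, hv'e, hfe, zero_add,
        smul_eq_mul, mul_one]
      exact hp
  have hall : ∀ v, Q v = 0 → T v := by
    intro v hv
    by_cases h : v = polar Q v (D.f 0) • D.e 0
    · intro x hx
      rw [h] at hx ⊢
      by_cases hg : polar Q v (D.f 0) = 0
      · rw [hg, zero_smul]
        have e : sg Q (0 : V) x = 1 :=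
          LinearEquiv.ext fun y => by rw [sg_apply (by simp) (by simp)]; simp
        rw [e]; exact one_mem H
      · have hx' : polar Q x (D.e 0) = 0 := by
          rw [polar_smul_right, smul_eq_mul] at hx
          exact (mul_eq_zero.mp hx).resolve_left hg
        rw [sg_smul (D.qe 0) hx']
        exact hE _ (by rw [polar_smul_left, hx', smul_zero])
    · exact step2 v hv h
  refine (Subgroup.closure_le H).2 ?_
  rintro _ ⟨d, x, hd, hxd, -, rfl⟩
  rw [SetLike.mem_coe, ← sg_eq hd hxd]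
  exact hall d hd x hxd

end Frame

end CfsgLib.OrthTwoGen
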