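import Cfsg.Agent.OrthTwoGen.Core
import Cfsg.Agent.SL3Pres.Rels
import Cfsg.Agent.Forms.GeoBridge

/-!
The commutator subgroup of an orthogonal group is generated by two elements.
-/

set_option autoImplicit false

open QuadraticMap

namespace CfsgLib.OrthTwoGen

open CfsgLib.Forms

variable {F V : Type*} [Field F] [AddCommGroup V] [Module F V] {Q : QuadraticForm F V} {k : ℕ}

/-- a quadratic recurrence after three and five steps in characteristic two -/
theorem rec_char_two (h2 : (2 : F) = 0) {A : V ≃ₗ[F] V} {v : V} {s a : F}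
    (h : A (A v) = (a * s) • A v - (a ^ 2) • v) :
    (A ^ 3) v = (a ^ 2 * (s ^ 2 + 1)) • A v + (a ^ 3 * s) • v ∧
      (A ^ 5) v = (a ^ 4 * (s ^ 4 + s ^ 2 + 1)) • A v + (a ^ 5 * s ^ 3) • v := by
  have h' : A (A v) = (a * s) • A v + (a ^ 2) • v := by
    rw [h, sub_eq_add_neg, ← neg_smul]
    congr 2
    linear_combination (-(a ^ 2)) * h2
  have h3 : (A ^ 3) v = (a ^ 2 * (s ^ 2 + 1)) • A v + (a ^ 3 * s) • v := by
    simp only [pow_succ, pow_zero, one_mul, LinearEquiv.mul_apply]
    rw [h', map_add, map_smul, map_smul, h']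
    module
  refine ⟨h3, ?_⟩
  have h5 : A ^ 5 = A * (A * A ^ 3) := by group
  rw [h5, LinearEquiv.mul_apply, LinearEquiv.mul_apply, h3, map_add, map_smul, map_smul, h']
  simp only [map_add, map_smul, h', smul_add, smul_smul]
  match_scalars
  · linear_combination (a ^ 4 * s ^ 2) * h2
  · linear_combination (a ^ 5 * s) * h2

theorem Frame.card_vals (D : Frame Q k) (s : F) {a : F} (ha : a ≠ 0) :
    (∀ v, v ∈ ({D.e 0, D.e 1} : Set V) →
      D.A s a (D.A s a v) = (a * s) • D.A s a v - (a ^ 2) • v) ∧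
    (∀ v, v ∈ ({D.f 0, D.f 1} : Set V) →
      D.A s a (D.A s a v) = (a⁻¹ * s) • D.A s a v - (a⁻¹ ^ 2) • v) := by
  obtain ⟨v0, v1, w0, w1⟩ := D.A_vals s ha
  constructor <;> rintro v (rfl | rfl) <;>
    simp only [v0, v1, w0, w1, map_smul, map_add, map_sub] <;> module

/-- the parameters -/
theorem exists_param [Fintype F] (p : ℕ) [hp : Fact p.Prime] [CharP F p] (D : Frame Q k) :
    ∃ (s a lam : F) (r : ℕ), a ≠ 0 ∧ lam ≠ 0 ∧ (∀ S : Subring F, lam ∈ S → S = ⊤) ∧ 0 < r ∧
      ¬ p ∣ r ∧ (∀ v, v ∈ ({D.e 0, D.e 1} : Set V) → (D.A s a ^ r) v = lam • v) ∧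
      (∀ v, v ∈ ({D.f 0, D.f 1} : Set V) → (D.A s a ^ r) v = lam⁻¹ • v) := by
  classical
  obtain ⟨g, hg⟩ := IsCyclic.exists_generator (α := Fˣ)
  have hlog := CfsgLib.SL3Pres.exists_log g hg
  by_cases h2 : (2 : F) = 0
  · have hp2 : p = 2 := (Nat.prime_dvd_prime_iff_eq hp.out Nat.prime_two).mp
      ((CharP.cast_eq_zero_iff F p 2).mp (by exact_mod_cast h2))
    by_cases h4 : Fintype.card F = 4
    · have hg3 : (g : F) ^ 3 = 1 := by
        have := FiniteField.pow_card_sub_one_eq_one (g : F) g.ne_zero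
        rwa [h4] at this
      have hg1 : (g : F) ≠ 1 := by
        intro e
        have : orderOf g = 1 := orderOf_eq_one_iff.mpr (Units.ext e)
        rw [orderOf_eq_card_of_forall_mem_zpowers hg, Nat.card_eq_fintype_card, Fintype.card_units,
          h4] at this
        omega
      have hq : (g : F) ^ 2 + (g : F) + 1 = 0 := by
        have : ((g : F) - 1) * ((g : F) ^ 2 + (g : F) + 1) = 0 := by linear_combination hg3
        exact (mul_eq_zero.mp this).resolve_left (sub_ne_zero.mpr hg1)
      have hs4 : (g : F) ^ 4 + (g : F) ^ 2 + 1 = 0 := by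
        linear_combination ((g : F) ^ 2 - (g : F) + 1) * hq
      refine ⟨(g : F), (g : F), (g : F) ^ 5, 5, g.ne_zero, pow_ne_zero _ g.ne_zero, fun S hS => ?_,
        by norm_num, by rw [hp2]; norm_num, fun v hv => ?_, fun v hv => ?_⟩
      · refine eq_top_iff.mpr fun z _ => ?_
        rcases eq_or_ne z 0 with rfl | hz
        · exact zero_mem S
        · obtain ⟨j, hj⟩ := hlog z hz
          have e : z = (((g : F) ^ 5) ^ 2) ^ j := by
            rw [← hj]; congr 1
            linear_combination (-(g : F) * ((g : F) ^ 6 + (g : F) ^ 3 + 1)) * hg3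
          rw [e]; exact pow_mem (pow_mem hS 2) j
      · rw [(rec_char_two h2 ((D.card_vals (g : F) g.ne_zero).1 v hv)).2, hs4, hg3, mul_zero,
          zero_smul, zero_add, mul_one]
      · rw [(rec_char_two h2 ((D.card_vals (g : F) g.ne_zero).2 v hv)).2, hs4, hg3, mul_zero,
          zero_smul, zero_add, mul_one, inv_pow]
    · refine ⟨1, (g : F), (g : F) ^ 3, 3, g.ne_zero, pow_ne_zero _ g.ne_zero, fun S hS => ?_,
        by norm_num, by rw [hp2]; norm_num, fun v hv => ?_, fun v hv => ?_⟩
      · refine eq_top_iff.mpr fun z _ => ?_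
        have hc := CfsgLib.SL3Pres.cubes_span h4 g hg
        have hz : z ∈ AddSubgroup.closure
            {y : F | ∃ z e, e ∈ ({1} : Set F) ∧ y = z ^ 3 * e} := hc ▸ AddSubgroup.mem_top z
        refine (AddSubgroup.closure_le S.toAddSubgroup).mpr ?_ hz
        rintro _ ⟨y, e, rfl, rfl⟩
        show y ^ 3 * 1 ∈ S
        rw [mul_one]
        rcases eq_or_ne y 0 with rfl | hy
        · rw [zero_pow (by norm_num)]; exact zero_mem S
        · obtain ⟨j, hj⟩ := hlog y hy
          rw [← hj, ← pow_mul, mul_comm, pow_mul]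
          exact pow_mem hS j
      · rw [(rec_char_two h2 ((D.card_vals 1 g.ne_zero).1 v hv)).1, one_pow,
          one_add_one_eq_two, h2, mul_zero, zero_smul, zero_add, mul_one]
      · rw [(rec_char_two h2 ((D.card_vals 1 g.ne_zero).2 v hv)).1, one_pow,
          one_add_one_eq_two, h2, mul_zero, zero_smul, zero_add, mul_one, inv_pow]
  · have hsplit : ∀ z : F, ∃ x y : F, z = x ^ 2 - y ^ 2 := fun z =>
      ⟨(z + 1) / 2, (z - 1) / 2, by field_simp; ring⟩
    have hp2 : ¬ p ∣ 2 := fun h => h2 (by exact_mod_cast (CharP.cast_eq_zero_iff F p 2).mpr h)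
    refine ⟨0, (g : F), -(g : F) ^ 2, 2, g.ne_zero, neg_ne_zero.mpr (pow_ne_zero _ g.ne_zero),
      fun S hS => ?_, by norm_num, hp2, fun v hv => ?_, fun v hv => ?_⟩
    · have hsq : (g : F) ^ 2 ∈ S := by
        have := neg_mem hS
        rwa [neg_neg] at this
      have hall : ∀ y : F, y ^ 2 ∈ S := by
        intro y
        rcases eq_or_ne y 0 with rfl | hy
        · rw [zero_pow (by norm_num)]; exact zero_mem S
        · obtain ⟨j, hj⟩ := hlog y hy
          rw [← hj, ← pow_mul, mul_comm, pow_mul]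
          exact pow_mem hsq j
      refine eq_top_iff.mpr fun z _ => ?_
      obtain ⟨x, y, rfl⟩ := hsplit z
      exact sub_mem (hall x) (hall y)
    · rw [pow_two, LinearEquiv.mul_apply, (D.card_vals 0 g.ne_zero).1 v hv, mul_zero, zero_smul,
        zero_sub, neg_smul]
    · rw [pow_two, LinearEquiv.mul_apply, (D.card_vals 0 g.ne_zero).2 v hv, mul_zero, zero_smul,
        zero_sub, inv_neg, inv_pow, neg_smul]

/-- two elements of the root group generate it -/
theorem Frame.two_gen [Fintype F] [FiniteDimensional F V] (D : Frame Q k)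
    (hQ : (polarBilin Q).Nondegenerate) (hn : 5 ≤ Module.finrank F V) :
    ∃ x y : V ≃ₗ[F] V, x ∈ rootGroup Q ∧ y ∈ rootGroup Q ∧
      rootGroup Q ≤ Subgroup.closure {x, y} := by
  classical
  obtain ⟨p, hcp⟩ := CharP.exists F
  haveI := hcp
  haveI hp : Fact p.Prime := ⟨CharP.char_is_prime F p⟩
  obtain ⟨s, a, lam, r, ha, hl, hgenF, hr0, hpr, hre, hrf⟩ := exists_param p D
  set yl := sg Q (D.e ⟨2, by omega⟩) D.u0 with hyl
  set A := D.A s a with hA
  have hA_root : A ∈ rootGroup Q := by
    rw [hA, Frame.A, Frame.G, tEl, sigma]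
    exact mul_mem (mul_mem (nEl_mem_root hQ hn _ _ _ _ _) (sg_mem_root hQ hn _ _))
      (mul_mem (nEl_mem_root hQ hn _ _ _ _ _) (nEl_mem_root hQ hn _ _ _ _ _))
  have hshift : ∀ j, D.shift j ∈ rootGroup Q := by
    intro j
    induction j with
    | zero => exact one_mem _
    | succ j ih =>
      rw [Frame.shift]; split
      · exact mul_mem ih (nEl_mem_root hQ hn _ _ _ _ _)
      · exact ih
  have hW_root : D.W ∈ rootGroup Q :=
    mul_mem (hshift _) (mul_mem (mul_mem (sg_mem_root hQ hn _ _) (sg_mem_root hQ hn _ _))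
      (sg_mem_root hQ hn _ _))
  refine ⟨A * yl, D.W, mul_mem hA_root (sg_mem_root hQ hn _ _), hW_root, ?_⟩
  set H := Subgroup.closure ({A * yl, D.W} : Set (V ≃ₗ[F] V))
  have h20 : (⟨2, by omega⟩ : Fin (k + 3)) ≠ 0 := by simp [Fin.ext_iff]
  have h21 : (⟨2, by omega⟩ : Fin (k + 3)) ≠ 1 := by simp [Fin.ext_iff]
  have hd := D.u_e ⟨2, by omega⟩
  have hcomm : Commute A yl := by
    show A * yl = yl * A
    rw [← mul_inv_eq_iff_eq_mul, hyl, sg_conj (D.A_mem_isom s a) (D.qe _) hd,
      D.A_fix s a (D.u_e 0) (D.u_f 0) (D.u_e 1) (D.u_f 1),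
      D.A_fix s a (D.pee _ _ h20) (D.pef' _ _ h20) (D.pee _ _ h21) (D.pef' _ _ h21)]
  -- orders
  have hyp : yl ^ p = 1 := by
    rw [hyl, sg_pow (D.qe _) hd, CharP.cast_eq_zero, zero_smul, sg_zero (D.qe _)]
  set N := r * (Fintype.card F - 1) with hN
  have hAN : A ^ N = 1 := by
    have hpow : ∀ (v : V) (c : F), (A ^ r) v = c • v → c ≠ 0 → (A ^ N) v = v := by
      intro v c hc hc0
      have key : ∀ j : ℕ, ((A ^ r) ^ j) v = c ^ j • v := by
        intro j
        induction j with
        | zero => simp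
        | succ j ih => rw [pow_succ, LinearEquiv.mul_apply, hc, map_smul, ih, smul_smul, pow_succ']
      rw [hN, pow_mul, key, FiniteField.pow_card_sub_one_eq_one c hc0, one_smul]
    refine LinearEquiv.ext fun v => ?_
    set a0 := polar Q v (D.f 0)
    set b0 := polar Q v (D.e 0)
    set a1 := polar Q v (D.f 1)
    set b1 := polar Q v (D.e 1)
    set v' := v - a0 • D.e 0 - b0 • D.f 0 - a1 • D.e 1 - b1 • D.f 1 with hv'
    have hfix : (A ^ N) v' = v' := by
      have h01 : (0 : Fin (k + 3)) ≠ 1 := Frame.ne01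
      have key : ∀ j : ℕ, (A ^ j) v' = v' := by
        intro j
        induction j with
        | zero => simp
        | succ j ih =>
          rw [pow_succ, LinearEquiv.mul_apply, hA, D.A_fix s a ?_ ?_ ?_ ?_]
          · exact ih
          all_goals
            simp only [hv', polar_sub_left, polar_smul_left, polar_self, D.qe, D.qf, D.pef,
              D.pee 0 1 h01, D.pee 1 0 h01.symm, D.pef' 0 1 h01, D.pef' 1 0 h01.symm,
              D.fe_zero h01, D.fe_zero h01.symm, D.pff 0 1 h01, D.pff 1 0 h01.symm,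
              polar_comm Q (D.f 0) (D.e 0), polar_comm Q (D.f 1) (D.e 1), smul_eq_mul,
              smul_zero, mul_one, mul_zero, sub_zero, sub_self, a0, b0, a1, b1]
      exact key N
    have he := fun w hw => hpow w lam (hre w hw) hl
    have hf := fun w hw => hpow w lam⁻¹ (hrf w hw) (inv_ne_zero hl)
    have hsum : v = v' + a0 • D.e 0 + b0 • D.f 0 + a1 • D.e 1 + b1 • D.f 1 := by rw [hv']; abel
    show (A ^ N) v = v
    rw [hsum, map_add, map_add, map_add, map_add, map_smul, map_smul, map_smul, map_smul, hfix,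
      he _ (Set.mem_insert _ _), he _ (Set.mem_insert_of_mem _ rfl), hf _ (Set.mem_insert _ _),
      hf _ (Set.mem_insert_of_mem _ rfl)]
  have hpN : Nat.Coprime p N := by
    rw [hp.out.coprime_iff_not_dvd, hN, hp.out.dvd_mul]
    rintro (h | h)
    · exact hpr h
    · obtain ⟨n, -, hn'⟩ := FiniteField.card F p
      have h1 : p ∣ Fintype.card F := hn' ▸ dvd_pow_self p n.ne_zero
      have hq := Fintype.one_lt_card (α := F)
      have := Nat.dvd_sub h1 h
      rw [show Fintype.card F - (Fintype.card F - 1) = 1 by omega] at this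
      exact hp.out.not_dvd_one this
  have hAy : A * yl ∈ H := Subgroup.subset_closure (Set.mem_insert _ _)
  have hAH : A ∈ H := by
    have h1 : (A * yl) ^ p = A ^ p := by rw [hcomm.mul_pow, hyp, mul_one]
    have h2 : A ^ p ∈ H := h1 ▸ pow_mem hAy p
    have hb := Nat.gcd_eq_gcd_ab p N
    rw [hpN.gcd_eq_one] at hb
    have : A = (A ^ p) ^ (Nat.gcdA p N) := by
      conv_lhs => rw [← zpow_one A, show (1 : ℤ) = (p : ℤ) * Nat.gcdA p N + (N : ℤ) * Nat.gcdB p N
        from by exact_mod_cast hb]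
      rw [zpow_add, zpow_mul, zpow_mul, zpow_natCast, zpow_natCast, hAN, one_zpow, mul_one]
    rw [this]; exact zpow_mem h2 _
  have hyH : yl ∈ H := (Subgroup.mul_mem_cancel_left H hAH).mp hAy
  exact D.root_le hQ ha r (hre _ (Set.mem_insert _ _)) hgenF hyH
    (Subgroup.subset_closure (Set.mem_insert_of_mem _ rfl)) hAH

section Matrices

variable {F : Type*} [Field F] [Fintype F] {ι : Type} [Fintype ι] [DecidableEq ι]
  {Q : QuadraticForm F (ι → F)}

theorem omega_two_gen (hQ : (polarBilin Q).Nondegenerate) (hn : 5 ≤ Fintype.card ι)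
    (D : Frame Q k) :
    ∃ a b : Cfsg.POmega F ⇑Q, Subgroup.closure ({a, b} : Set (Cfsg.POmega F ⇑Q)) = ⊤ := by
  classical
  have hn' : 5 ≤ Module.finrank F (ι → F) := by rwa [Module.finrank_fintype_fun_eq_card]
  obtain ⟨x, y, hx, hy, hxy⟩ := D.two_gen hQ hn'
  let φ : Cfsg.Omega F ⇑Q →* ((ι → F) ≃ₗ[F] (ι → F)) :=
    ((isom Q).subtype.comp (isoEquiv Q).toMonoidHom).comp (Cfsg.Omega F ⇑Q).subtype
  have hφ : Function.Injective φ :=
    (Subtype.val_injective.comp (isoEquiv Q).injective).comp Subtype.val_injective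
  have hrange : φ.range = rootGroup Q := by
    refine le_antisymm ?_ ?_
    · rintro _ ⟨g, rfl⟩
      exact commutator_le_rootGroup hQ hn' ((CfsgLib.Forms.mem_Omega_iff Q g.1).1 g.2)
    · refine (Subgroup.closure_le _).2 ?_
      rintro _ ⟨d, w, hd, hwd, -, rfl⟩
      refine ⟨⟨(isoEquiv Q).symm ⟨siegel Q d w hd hwd, siegel_mem_isom hd hwd⟩, ?_⟩, ?_⟩
      · rw [CfsgLib.Forms.mem_Omega_iff Q, MulEquiv.apply_symm_apply]
        exact siegel_mem_commutator hQ hn hd hwd
      · show ((isoEquiv Q ((isoEquiv Q).symm _) : isom Q) : (ι → F) ≃ₗ[F] (ι → F)) = _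
        rw [MulEquiv.apply_symm_apply]
  rw [← hrange] at hx hy
  obtain ⟨gx, rfl⟩ := hx
  obtain ⟨gy, rfl⟩ := hy
  have htop : Subgroup.closure ({gx, gy} : Set (Cfsg.Omega F ⇑Q)) = ⊤ := by
    apply Subgroup.map_injective hφ
    rw [MonoidHom.map_closure, Set.image_pair, ← MonoidHom.range_eq_map]
    refine le_antisymm ((Subgroup.closure_le _).2 ?_) (hrange ▸ hxy)
    rintro _ (rfl | rfl) <;> exact ⟨_, rfl⟩
  refine ⟨QuotientGroup.mk' _ gx, QuotientGroup.mk' _ gy, ?_⟩
  rw [← Set.image_pair, ← MonoidHom.map_closure, htop, ← MonoidHom.range_eq_map,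
    MonoidHom.range_eq_top]
  exact QuotientGroup.mk'_surjective _

end Matrices

/-- the standard split form -/
def framePlus {F : Type*} [Field F] (k : ℕ) : Frame (quadPlus F (k + 4)) k where
  e i := Pi.single (Sum.inl i.castSucc) 1
  f i := Pi.single (Sum.inr i.castSucc) 1
  z := Pi.single (Sum.inl (Fin.last _)) 1 + Pi.single (Sum.inr (Fin.last _)) 1
  u0 := Pi.single (Sum.inl (Fin.last _)) 1
  qe i := by simp [coe_quadPlus, Cfsg.quadFormPlus, Pi.single_apply]
  qf i := by simp [coe_quadPlus, Cfsg.quadFormPlus, Pi.single_apply]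
  pef i := by simp [polar_plus, Pi.single_apply]
  pee i j h := by simp [polar_plus, Pi.single_apply]
  pff i j h := by simp [polar_plus, Pi.single_apply]
  pef' i j h := by simp [polar_plus, Pi.single_apply, h.symm]
  z_e i := by simp [polar_plus, Pi.single_apply, Fin.castSucc_ne_last, (Fin.castSucc_ne_last i).symm]
  z_f i := by simp [polar_plus, Pi.single_apply, Fin.castSucc_ne_last, (Fin.castSucc_ne_last i).symm]
  hz := by simp [coe_quadPlus, Cfsg.quadFormPlus, Pi.single_apply]
  u_e i := by simp [polar_plus, Pi.single_apply]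
  u_f i := by simp [polar_plus, Pi.single_apply, (Fin.castSucc_ne_last i).symm]
  span u he hf := by
    simp only [coe_quadPlus, polar_plus, Pi.single_apply] at he hf
    simp [Finset.sum_ite_eq', mul_ite] at he hf
    refine ⟨u (Sum.inl (Fin.last _)), -u (Sum.inr (Fin.last _)), ?_⟩
    ext (j | j) <;> rcases Fin.eq_castSucc_or_eq_last j with ⟨i, rfl⟩ | rfl <;>
      simp [coe_quadPlus, Cfsg.quadFormPlus, polar_plus, Pi.single_apply, he, hf]
  pair := ⟨Pi.single (Sum.inl (Fin.last _)) 1, Pi.single (Sum.inr (Fin.last _)) 1,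
    fun i => by simp [polar_plus, Pi.single_apply],
    fun i => by simp [polar_plus, Pi.single_apply, (Fin.castSucc_ne_last i).symm],
    fun i => by simp [polar_plus, Pi.single_apply, (Fin.castSucc_ne_last i).symm],
    fun i => by simp [polar_plus, Pi.single_apply],
    by simp [polar_plus, Pi.single_apply]⟩

/-- the odd-dimensional form -/
def frameOdd {F : Type*} [Field F] (h2 : (2 : F) ≠ 0) (k : ℕ) : Frame (quadOdd F (k + 3)) k where
  e i := Pi.single (Sum.inr (Sum.inl i)) 1
  f i := Pi.single (Sum.inr (Sum.inr i)) 1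
  z := Pi.single (Sum.inl ()) 1
  u0 := Pi.single (Sum.inl ()) 1
  qe i := by simp [coe_quadOdd, Cfsg.quadFormOdd, Pi.single_apply]
  qf i := by simp [coe_quadOdd, Cfsg.quadFormOdd, Pi.single_apply]
  pef i := by simp [polar_odd, Pi.single_apply]
  pee i j h := by simp [polar_odd, Pi.single_apply]
  pff i j h := by simp [polar_odd, Pi.single_apply]
  pef' i j h := by simp [polar_odd, Pi.single_apply, h.symm]
  z_e i := by simp [polar_odd, Pi.single_apply]
  z_f i := by simp [polar_odd, Pi.single_apply]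
  hz := by simp [coe_quadOdd, Cfsg.quadFormOdd, Pi.single_apply]
  u_e i := by simp [polar_odd, Pi.single_apply]
  u_f i := by simp [polar_odd, Pi.single_apply]
  span u he hf := by
    simp only [coe_quadOdd, polar_odd, Pi.single_apply] at he hf
    simp [Finset.sum_ite_eq', mul_ite] at he hf
    refine ⟨u (Sum.inl ()), 0, ?_⟩
    ext (j | j | j) <;> simp [Pi.single_apply, he, hf]
  pair := ⟨Pi.single (Sum.inl ()) 1, Pi.single (Sum.inl ()) 1,
    fun i => by simp [polar_odd, Pi.single_apply],
    fun i => by simp [polar_odd, Pi.single_apply],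
    fun i => by simp [polar_odd, Pi.single_apply],
    fun i => by simp [polar_odd, Pi.single_apply],
    by simp [polar_odd, Pi.single_apply, h2]⟩

/-- the second vector of the anisotropic plane -/
def minusVec {F : Type*} [Field F] (m : ℕ) (c : F) : (Fin m ⊕ Fin m) ⊕ Fin 2 → F :=
  Pi.single (Sum.inr 1) 1 + c • Pi.single (Sum.inr 0) 1

/-- the elliptic form, for `u0 = (c, 1)` with `2 c + a` non-zero -/
def frameMinus {F : Type*} [Field F] (k : ℕ) (a b c : F) (hc : 2 * c + a ≠ 0) :
    Frame (quadMinus F (k + 3) a b) k where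
  e i := Pi.single (Sum.inl (Sum.inl i)) 1
  f i := Pi.single (Sum.inl (Sum.inr i)) 1
  z := Pi.single (Sum.inr 0) 1
  u0 := minusVec _ c
  qe i := by simp [coe_quadMinus, Cfsg.quadFormMinus, Pi.single_apply]
  qf i := by simp [coe_quadMinus, Cfsg.quadFormMinus, Pi.single_apply]
  pef i := by simp [polar_minus, Pi.single_apply]
  pee i j h := by simp [polar_minus, Pi.single_apply]
  pff i j h := by simp [polar_minus, Pi.single_apply]
  pef' i j h := by simp [polar_minus, Pi.single_apply, h.symm]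
  z_e i := by simp [polar_minus, Pi.single_apply]
  z_f i := by simp [polar_minus, Pi.single_apply]
  hz := by simp [coe_quadMinus, Cfsg.quadFormMinus, Pi.single_apply]
  u_e i := by simp [minusVec, polar_minus, Pi.single_apply]
  u_f i := by simp [minusVec, polar_minus, Pi.single_apply]
  span u he hf := by
    simp only [coe_quadMinus, polar_minus, Pi.single_apply] at he hf
    simp [Finset.sum_ite_eq', mul_ite] at he hf
    have hc' : c * 2 + a ≠ 0 := by rwa [mul_comm]
    refine ⟨u (Sum.inr 1) - (c * u (Sum.inr 1) - u (Sum.inr 0)) / (2 * c + a),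
      (c * u (Sum.inr 1) - u (Sum.inr 0)) / (2 * c + a), ?_⟩
    ext ((j | j) | j)
    · simp [minusVec, coe_quadMinus, Cfsg.quadFormMinus, polar_minus, Pi.single_apply, hf]
    · simp [minusVec, coe_quadMinus, Cfsg.quadFormMinus, polar_minus, Pi.single_apply, he]
    · fin_cases j <;>
        simp [minusVec, coe_quadMinus, Cfsg.quadFormMinus, polar_minus, Pi.single_apply] <;>
        (field_simp; ring)
  pair := ⟨Pi.single (Sum.inr 0) 1, minusVec _ c,
    fun i => by simp [polar_minus, Pi.single_apply],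
    fun i => by simp [polar_minus, Pi.single_apply],
    fun i => by simp [minusVec, polar_minus, Pi.single_apply],
    fun i => by simp [minusVec, polar_minus, Pi.single_apply],
    by simpa [minusVec, polar_minus, Pi.single_apply] using hc⟩

end CfsgLib.OrthTwoGen
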